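import Mathlib
import Cfsg.Agent.ORD.Winter
import Cfsg.Agent.CHAR.FS
import Cfsg.Agent.CLAS.DicksonCount

/-!
# Primitive linear groups of degree two
-/

set_option autoImplicit false
set_option linter.unusedSectionVars false
open Cfsg CL.Char CL.PGL2 CL.Dk
open scoped ComplexConjugate commutatorElement MatrixGroups

namespace CL.Ord

variable {G : Type*} [Group G]

theorem unp_eq_bot_of_charZero [Finite G] {F : Type*} [Field F] [CharZero F]
    {ρ : G →* PGL(2, F)} (hρ : Function.Injective ρ) (x : P1 F) : unp ρ x = ⊥ := by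
  obtain ⟨h, rfl⟩ := exists_smul_inf x
  rw [← unp_cj, eq_bot_iff]
  intro g hg
  obtain ⟨b, hb⟩ := mem_unipAt_inf.mp (mem_unp.mp hg)
  have h1 : aff 1 b ^ Nat.card G = 1 := by rw [← hb, ← map_pow, pow_card_eq_one', map_one]
  rw [aff_one_pow, aff_eq_one_iff] at h1
  have hb0 : b = 0 := (mul_eq_zero.mp h1.2).resolve_left (by exact_mod_cast Nat.card_pos.ne')
  rw [hb0, aff_one_zero] at hb
  exact cj_injective h hρ (hb.trans (map_one _).symm)

theorem isCyclic_stab [Finite G] {ρ : G →* PGL(2, ℂ)} (hρ : Function.Injective ρ) (x : P1 ℂ) :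
    IsCyclic (stab ρ x) := by
  obtain ⟨h, rfl⟩ := exists_smul_inf x
  rw [← stab_cj]
  apply isCyclic_of_injective_hom (multHom (cj h ρ))
  rw [← MonoidHom.ker_eq_bot_iff, ker_multHom, unp_eq_bot_of_charZero (cj_injective h hρ),
    Subgroup.bot_subgroupOf]

theorem exists_pgl_hom [Finite G] {χ : G → ℂ} (hχ : IsCharacter G χ) (h2 : charDegree χ = 2) :
    ∃ f : G →* PGL(2, ℂ), f.ker = charCenter χ := by
  obtain ⟨n, ρ, rfl⟩ := hχ
  rw [charDegree_character, Module.finrank_fin_fun] at h2
  subst h2
  have hdet : ∀ g, (repMat ρ g).det ≠ 0 := fun g => by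
    have : (repMat ρ g).det * (repMat ρ g⁻¹).det = 1 := by
      rw [← Matrix.det_mul, ← repMat_mul, mul_inv_cancel, repMat_one, Matrix.det_one]
    exact left_ne_zero_of_mul_eq_one this
  refine ⟨MonoidHom.mk' (fun g => ofMat (repMat ρ g) (hdet g)) fun a b => by
    rw [ofMat_mul]; congr 1; exact repMat_mul ρ a b, ?_⟩
  ext g
  rw [MonoidHom.mem_ker, mem_charCenter_character, MonoidHom.mk'_apply,
    ← ofMat_one (by simp), eq_comm, ofMat_eq_iff]
  refine exists_congr fun c => ?_
  constructor
  · intro h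
    apply LinearMap.toMatrix'.injective
    rw [map_smul, LinearMap.toMatrix'_one, h]
    rfl
  · intro h
    rw [repMat, h, map_smul, LinearMap.toMatrix'_one]

theorem primitive_degree_two [Fintype G] {χ : G → ℂ} (hχ : IsIrrCharacter G χ)
    (hk : charKer χ = ⊥) (h2 : charDegree χ = 2)
    (hprim : ∀ H : Subgroup G, H ≠ ⊤ → ∀ θ : H → ℂ, IsCharacter H θ → χ ≠ indFun H θ) :
    (Subgroup.center G).index = 12 ∨ (Subgroup.center G).index = 24 ∨
      (Subgroup.center G).index = 60 := by
  obtain ⟨f, hf⟩ := exists_pgl_hom hχ.isCharacter h2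
  rw [hχ.charCenter_eq_center hk] at hf
  have hinj := QuotientGroup.kerLift_injective f
  have hc : Nat.card (G ⧸ f.ker) = (Subgroup.center G).index := by rw [← hf]; rfl
  rcases count_core hinj with ⟨x, hx⟩ | ⟨h, -⟩ | ⟨-, x, hx⟩ | ⟨x, hx, -⟩
  · exfalso
    obtain ⟨H, hH⟩ : ∃ H, H = (stab (QuotientGroup.kerLift f) x).comap (QuotientGroup.mk' _) :=
      ⟨_, rfl⟩
    have hHi : H.index ≤ 2 := by
      rwa [hH, Subgroup.index_comap_of_surjective _ (QuotientGroup.mk'_surjective _)]
    have hcy := isCyclic_stab hinj x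
    have hab : ∀ a ∈ H, ∀ b ∈ H, a * b = b * a := by
      subst hH
      have := MonoidHom.isMulCommutative_of_isCyclic_of_ker_le_center
        ((QuotientGroup.mk' f.ker).subgroupComap (stab (QuotientGroup.kerLift f) x)) (by
          intro y hy
          have h1 : (y : G) ∈ f.ker := (QuotientGroup.eq_one_iff _).mp (congrArg Subtype.val hy)
          exact Subgroup.mem_center_iff.mpr fun g =>
            Subtype.ext (Subgroup.mem_center_iff.mp (hf.le h1) g))
      exact fun a ha b hb => congrArg Subtype.val (this.is_comm.comm ⟨a, ha⟩ ⟨b, hb⟩)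
    have hn : H.Normal := by
      have h0 : H.index ≠ 0 := Subgroup.index_ne_zero_of_finite
      by_cases h1 : H.index = 1
      · rw [Subgroup.index_eq_one.mp h1]; infer_instance
      · exact Subgroup.normal_of_index_eq_two (by omega)
    have := Fintype.ofFinite H
    rcases homogeneous_or_induced H hχ with h | ⟨T, ψ, -, hT, hψ, e⟩
    · have h1 := IsHomog.le_charCenter h hχ.isCharacter (by
        rw [Subgroup.commutator_le]
        intro a ha b hb
        rw [commutatorElement_eq_one_iff_mul_comm.mpr (hab a ha b hb)]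
        exact one_mem _)
      have := hχ.charDegree_sq_le_index h1
      rw [h2] at this
      omega
    · exact hprim T hT ψ hψ.isCharacter e.symm
  · rwa [hc] at h
  · rw [unp_eq_bot_of_charZero hinj, Subgroup.card_bot] at hx
    omega
  · rw [unp_eq_bot_of_charZero hinj, Subgroup.card_bot] at hx
    omega

end CL.Ord
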