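import Mathlib

/-! A group of order `2p³` with trivial centralizer in infinitely many `PSL(n,p)`. -/

set_option autoImplicit false

namespace CL.Ord.Kron

open Matrix

variable {R : Type*} [CommRing R] {n : ℕ}

def Nm (n : ℕ) (a b c : R) : Matrix (Fin n) (Fin n) R := Matrix.of fun i j =>
  if (j : ℕ) % 2 = 1 then (if (i : ℕ) + 1 = j then a else 0) + (if (i : ℕ) = j + 1 then b else 0)
    + (if (i : ℕ) = 0 ∧ (j : ℕ) = 1 then c else 0) else 0

def Dm (n : ℕ) (s : R) : Matrix (Fin n) (Fin n) R :=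
  diagonal fun i => if (i : ℕ) % 2 = 0 then 1 else s

theorem Nm_odd_row (a b c : R) {i j : Fin n} (hi : (i : ℕ) % 2 ≠ 0) : Nm n a b c i j = 0 := by
  simp only [Nm, of_apply]
  split_ifs <;> first | omega | simp

theorem Nm_even_col (a b c : R) {i j : Fin n} (hj : (j : ℕ) % 2 = 0) : Nm n a b c i j = 0 := by
  simp only [Nm, of_apply]
  rw [if_neg (by omega)]

theorem Dm_mul_Nm (s a b c : R) : Dm n s * Nm n a b c = Nm n a b c := by
  ext i j
  rw [Dm, diagonal_mul]
  split_ifs with h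
  · simp
  · simp [Nm_odd_row a b c h]

theorem Nm_mul_Dm (s a b c : R) : Nm n a b c * Dm n s = s • Nm n a b c := by
  ext i j
  rw [Dm, mul_diagonal]
  split_ifs with h
  · simp [Nm_even_col a b c h]
  · simp [mul_comm]

theorem Nm_mul_Nm (a b c a' b' c' : R) : Nm n a b c * Nm n a' b' c' = 0 := by
  rw [← Dm_mul_Nm 0 a', ← Matrix.mul_assoc, Nm_mul_Dm]; simp

theorem Dm_mul_Dm (s t : R) : Dm n s * Dm n t = Dm n (s * t) := by
  rw [Dm, Dm, diagonal_mul_diagonal, Dm]
  congr 1; ext i; split_ifs <;> simp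

theorem Dm_one : Dm n (1 : R) = 1 := by simp [Dm]

theorem Nm_add (a b c a' b' c' : R) :
    Nm n (a + a') (b + b') (c + c') = Nm n a b c + Nm n a' b' c' := by
  ext i j
  simp only [Nm, of_apply, Matrix.add_apply]
  split_ifs <;> ring

theorem Nm_smul (s a b c : R) : Nm n (s * a) (s * b) (s * c) = s • Nm n a b c := by
  ext i j
  simp only [Nm, of_apply, Matrix.smul_apply, smul_eq_mul]
  split_ifs <;> ring

theorem Nm_zero : Nm n (0 : R) 0 0 = 0 := by
  ext i j; simp [Nm]

theorem Nm_diag (a b c : R) (i : Fin n) : Nm n a b c i i = 0 := by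
  by_cases h : (i : ℕ) % 2 = 0
  exacts [Nm_even_col a b c h, Nm_odd_row a b c h]

theorem one_add_pow (a b c : R) (k : ℕ) : (1 + Nm n a b c) ^ k = 1 + k • Nm n a b c := by
  induction k with
  | zero => simp
  | succ k ih =>
    rw [pow_succ, ih, add_mul, mul_add, mul_add, smul_mul_assoc, smul_mul_assoc, Nm_mul_Nm,
      succ_nsmul]
    simp only [one_mul, mul_one, smul_zero, add_zero]; abel

theorem det_Dm (k : ℕ) {s : R} (hs : s * s = 1) : (Dm (4 * k + 1) s).det = 1 := by
  rw [Dm, det_diagonal, Fin.prod_univ_eq_prod_range (fun i => if i % 2 = 0 then (1 : R) else s)]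
  induction k with
  | zero => simp
  | succ k ih =>
    rw [show 4 * (k + 1) + 1 = 4 * k + 1 + 1 + 1 + 1 + 1 by ring, Finset.prod_range_succ,
      Finset.prod_range_succ, Finset.prod_range_succ, Finset.prod_range_succ, ih,
      if_neg (by omega), if_pos (by omega), if_neg (by omega), if_pos (by omega)]
    simp [hs]

theorem trace_Dm (k : ℕ) : (Dm (2 * k + 1) (-1 : R)).trace = 1 := by
  rw [Dm, trace_diagonal, Fin.sum_univ_eq_sum_range (fun i => if i % 2 = 0 then (1 : R) else -1)]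
  induction k with
  | zero => simp
  | succ k ih =>
    rw [show 2 * (k + 1) + 1 = 2 * k + 1 + 1 + 1 by ring, Finset.sum_range_succ,
      Finset.sum_range_succ, ih, if_neg (by omega), if_pos (by omega)]
    simp

theorem trace_Nm (a b c : R) : (Nm n a b c).trace = 0 := by
  simp [trace, Nm_diag]

/-- the preprojective Kronecker module is a brick -/
theorem scalar_of_comm {F : Type*} [Field F] (h2 : (2 : F) ≠ 0) {m : ℕ} (hm : m % 2 = 0)
    (g : Matrix (Fin (m + 1)) (Fin (m + 1)) F)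
    (hT : g * Dm _ (-1) = Dm _ (-1) * g) (hX : g * Nm _ 1 0 0 = Nm _ 1 0 0 * g)
    (hY : g * Nm _ 0 1 0 = Nm _ 0 1 0 * g) : g = scalar _ (g 0 0) := by
  have par : ∀ i j : Fin (m + 1), (i : ℕ) % 2 ≠ (j : ℕ) % 2 → g i j = 0 := by
    intro i j hij
    have := congrFun (congrFun hT i) j
    rw [Dm, mul_diagonal, diagonal_mul] at this
    apply mul_left_cancel₀ h2
    split_ifs at this with h1 h3 h3
    · omega
    · linear_combination this
    · linear_combination -this
    · omega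
  have gX : ∀ i j k : Fin (m + 1), (j : ℕ) % 2 = 1 → (k : ℕ) + 1 = j →
      (g * Nm (m + 1) (1 : F) 0 0 :) i j = g i k := by
    intro i j k hj hk
    rw [mul_apply, Finset.sum_eq_single k]
    · simp [Nm, hj, hk]
    · intro l _ hl
      have : (l : ℕ) + 1 ≠ j := fun h => hl (Fin.ext (by omega))
      simp [Nm, this]
    · simp
  have gY : ∀ i j k : Fin (m + 1), (j : ℕ) % 2 = 1 → (k : ℕ) = j + 1 →
      (g * Nm (m + 1) (0 : F) 1 0 :) i j = g i k := by
    intro i j k hj hk
    rw [mul_apply, Finset.sum_eq_single k]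
    · simp [Nm, hj, hk]
    · intro l _ hl
      have : (l : ℕ) ≠ j + 1 := fun h => hl (Fin.ext (by omega))
      simp [Nm, this]
    · simp
  have Xg : ∀ i j k : Fin (m + 1), (k : ℕ) % 2 = 1 → (i : ℕ) + 1 = k →
      (Nm (m + 1) (1 : F) 0 0 * g :) i j = g k j := by
    intro i j k hj hk
    rw [mul_apply, Finset.sum_eq_single k]
    · simp [Nm, hj, hk]
    · intro l _ hl
      have : (i : ℕ) + 1 ≠ l := fun h => hl (Fin.ext (by omega))
      simp [Nm, this]
    · simp
  have Yg : ∀ i j k : Fin (m + 1), (k : ℕ) % 2 = 1 → (i : ℕ) = k + 1 →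
      (Nm (m + 1) (0 : F) 1 0 * g :) i j = g k j := by
    intro i j k hj hk
    rw [mul_apply, Finset.sum_eq_single k]
    · simp [Nm, hj, hk]
    · intro l _ hl
      have : (i : ℕ) ≠ l + 1 := fun h => hl (Fin.ext (by omega))
      simp [Nm, this]
    · simp
  have toe : ∀ i j i' j' : Fin (m + 1), (i' : ℕ) = i + 1 → (j' : ℕ) = j + 1 → g i' j' = g i j := by
    intro i j i' j' hi hj
    by_cases hp : (i : ℕ) % 2 = (j : ℕ) % 2
    · by_cases he : (i : ℕ) % 2 = 0
      · rw [← Xg i j' i' (by omega) hi.symm, ← hX, gX i j' j (by omega) hj.symm]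
      · rw [← Yg i' j i (by omega) hi, ← hY, gY i' j j' (by omega) hj]
    · rw [par i j hp, par i' j' (by omega)]
  have top : ∀ j : Fin (m + 1), 0 < (j : ℕ) → g 0 j = 0 := by
    intro j hj
    by_cases he : (j : ℕ) % 2 = 0
    · rw [← gY 0 ⟨j - 1, by omega⟩ j (by simp; omega) (by simp; omega), hY, mul_apply]
      exact Finset.sum_eq_zero fun l _ => by simp [Nm]
    · exact par _ _ (by simp; omega)
  have bot : ∀ j : Fin (m + 1), (j : ℕ) < m → g (Fin.last m) j = 0 := by
    intro j hj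
    by_cases he : (j : ℕ) % 2 = 0
    · rw [← gX (Fin.last m) ⟨j + 1, by omega⟩ j (by simp; omega) (by simp), hX, mul_apply]
      refine Finset.sum_eq_zero fun l _ => ?_
      have : m + 1 ≠ l := by omega
      simp [Nm, this]
    · exact par _ _ (by simp; omega)
  have shift : ∀ (d : ℕ) (i j i' j' : Fin (m + 1)), (i' : ℕ) = i + d → (j' : ℕ) = j + d →
      g i' j' = g i j := by
    intro d
    induction d with
    | zero => intro i j i' j' hi hj; rw [Fin.ext hi, Fin.ext hj]
    | succ d ih =>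
      intro i j i' j' hi hj
      rw [toe ⟨i + d, by omega⟩ ⟨j + d, by omega⟩ i' j' (by simp; omega) (by simp; omega)]
      exact ih _ _ _ _ rfl rfl
  ext i j
  rw [scalar_apply, diagonal_apply]
  split_ifs with h
  · subst h; exact shift i 0 0 i i (by simp) (by simp)
  · rcases lt_or_gt_of_ne (fun e => h (Fin.ext e) : (i : ℕ) ≠ j) with h | h
    · rw [shift i 0 ⟨j - i, by omega⟩ i j (by simp) (by simp; omega)]
      exact top _ (by simp; omega)
    · rw [← shift (m - i) i j (Fin.last m) ⟨j + (m - i), by omega⟩ (by simp; omega) rfl]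
      exact bot _ (by simp; omega)

/-- the generalized dihedral group on `R³` -/
@[ext] structure GD (R : Type*) where
  a : R
  b : R
  c : R
  s : ℤˣ

instance : Mul (GD R) :=
  ⟨fun g h => ⟨g.a + (g.s : ℤ) * h.a, g.b + (g.s : ℤ) * h.b, g.c + (g.s : ℤ) * h.c, g.s * h.s⟩⟩
instance : One (GD R) := ⟨⟨0, 0, 0, 1⟩⟩
instance : Inv (GD R) :=
  ⟨fun g => ⟨-((g.s : ℤ) * g.a), -((g.s : ℤ) * g.b), -((g.s : ℤ) * g.c), g.s⟩⟩
@[simp] theorem GD.mul_a (g h : GD R) : (g * h).a = g.a + (g.s : ℤ) * h.a := rfl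
@[simp] theorem GD.mul_b (g h : GD R) : (g * h).b = g.b + (g.s : ℤ) * h.b := rfl
@[simp] theorem GD.mul_c (g h : GD R) : (g * h).c = g.c + (g.s : ℤ) * h.c := rfl
@[simp] theorem GD.mul_s (g h : GD R) : (g * h).s = g.s * h.s := rfl
@[simp] theorem GD.one_a : (1 : GD R).a = 0 := rfl
@[simp] theorem GD.one_b : (1 : GD R).b = 0 := rfl
@[simp] theorem GD.one_c : (1 : GD R).c = 0 := rfl
@[simp] theorem GD.one_s : (1 : GD R).s = 1 := rfl
@[simp] theorem GD.inv_a (g : GD R) : (g⁻¹).a = -((g.s : ℤ) * g.a) := rfl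
@[simp] theorem GD.inv_b (g : GD R) : (g⁻¹).b = -((g.s : ℤ) * g.b) := rfl
@[simp] theorem GD.inv_c (g : GD R) : (g⁻¹).c = -((g.s : ℤ) * g.c) := rfl
@[simp] theorem GD.inv_s (g : GD R) : (g⁻¹).s = g.s := rfl

instance : Group (GD R) := Group.ofLeftAxioms
  (fun k l m => by ext <;> simp <;> ring)
  (fun k => by ext <;> simp)
  (fun k => by ext <;> simp)

def GD.equiv : GD R ≃ ℤˣ × R × R × R where
  toFun g := (g.s, g.a, g.b, g.c)
  invFun x := ⟨x.2.1, x.2.2.1, x.2.2.2, x.1⟩
  left_inv _ := rfl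
  right_inv _ := rfl

theorem sq_s (s : ℤˣ) : ((s : ℤ) : R) * ((s : ℤ) : R) = 1 := by
  rcases Int.units_eq_one_or s with rfl | rfl <;> simp

/-- the matrix of an element -/
def mat (n : ℕ) (g : GD R) : Matrix (Fin n) (Fin n) R :=
  (1 + Nm n g.a g.b g.c) * Dm n ((g.s : ℤ) : R)

theorem mat_eq (g : GD R) :
    mat n g = Dm n ((g.s : ℤ) : R) + ((g.s : ℤ) : R) • Nm n g.a g.b g.c := by
  rw [mat, add_mul, one_mul, Nm_mul_Dm]

theorem mat_mul (g h : GD R) : mat n (g * h) = mat n g * mat n h := by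
  simp only [mat_eq, add_mul, mul_add, Matrix.mul_smul, Matrix.smul_mul, Dm_mul_Dm, Dm_mul_Nm,
    Nm_mul_Dm, Nm_mul_Nm, GD.mul_a, GD.mul_b, GD.mul_c, GD.mul_s, Nm_add, Nm_smul, smul_add,
    smul_smul, Units.val_mul, Int.cast_mul, smul_zero, add_zero]
  rw [show ((g.s : ℤ) : R) * ((h.s : ℤ) : R) * ((g.s : ℤ) : R) = ((h.s : ℤ) : R) by
    linear_combination ((h.s : ℤ) : R) * sq_s (R := R) g.s, add_assoc]

variable (p : ℕ) [Fact p.Prime]

theorem det_mat (k : ℕ) (g : GD (ZMod p)) : (mat (4 * k + 1) g).det = 1 := by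
  rw [mat, det_mul, det_Dm k (sq_s _), mul_one, ← ZMod.pow_card (det _), ← det_pow, one_add_pow,
    ← Nat.cast_smul_eq_nsmul (ZMod p), ZMod.natCast_self, zero_smul, add_zero, det_one]

def hom (k : ℕ) : GD (ZMod p) →* Matrix.SpecialLinearGroup (Fin (4 * k + 1)) (ZMod p) where
  toFun g := ⟨mat _ g, det_mat p k g⟩
  map_one' := by
    apply Subtype.ext
    simp [mat, Nm_zero, Dm_one]
  map_mul' g h := Subtype.ext (mat_mul g h)

theorem main (hp : p ≠ 2) :
    ∃ (H : Type) (_ : Group H) (_ : Finite H), Nat.card H = 2 * p ^ 3 ∧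
      ∀ N : ℕ, ∃ n, N ≤ n ∧ ∃ φ : H →* Matrix.ProjectiveSpecialLinearGroup (Fin n) (ZMod p),
        Function.Injective φ ∧ Subgroup.centralizer
          (φ.range : Set (Matrix.ProjectiveSpecialLinearGroup (Fin n) (ZMod p))) = ⊥ := by
  have h2 : (2 : ZMod p) ≠ 0 := by
    intro h
    have := (ZMod.natCast_eq_zero_iff 2 p).1 (by exact_mod_cast h)
    exact hp ((Nat.prime_dvd_prime_iff_eq Fact.out Nat.prime_two).1 this)
  refine ⟨GD (ZMod p), inferInstance, Finite.of_equiv _ GD.equiv.symm, ?_, fun N => ?_⟩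
  · rw [Nat.card_congr GD.equiv]
    simp [pow_three]
  obtain ⟨k, hk, hN⟩ : ∃ k, 1 ≤ k ∧ N ≤ 4 * k + 1 := ⟨N + 1, by omega, by omega⟩
  refine ⟨4 * k + 1, hN, (QuotientGroup.mk' _).comp (hom p k), ?_, ?_⟩
  · rw [injective_iff_map_eq_one]
    intro g hg
    obtain ⟨r, -, hr⟩ := Matrix.SpecialLinearGroup.mem_center_iff.1 ((QuotientGroup.eq_one_iff _).1 hg)
    change _ = mat _ g at hr
    rw [mat_eq] at hr
    have e : ∀ i j, scalar (Fin (4 * k + 1)) r i j = _ := fun i j => congrFun (congrFun hr i) j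
    have e0 := e 0 0
    have e1 := e ⟨1, by omega⟩ ⟨1, by omega⟩
    have e2 := e ⟨2, by omega⟩ ⟨3, by omega⟩
    have e3 := e ⟨4, by omega⟩ ⟨3, by omega⟩
    have e4 := e ⟨0, by omega⟩ ⟨1, by omega⟩
    simp only [Nm, Dm, scalar_apply, diagonal_apply, Fin.ext_iff, Matrix.add_apply,
      Matrix.smul_apply, of_apply, smul_eq_mul, Fin.val_zero] at e0 e1 e2 e3 e4
    norm_num at e0 e1 e2 e3 e4
    have hs : g.s = 1 := by
      rcases Int.units_eq_one_or g.s with h | h
      · exact h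
      · exfalso; apply h2
        rw [h, e0] at e1
        simp only [Units.val_neg, Units.val_one, Int.cast_neg, Int.cast_one] at e1
        linear_combination e1
    simp [hs] at e2 e3 e4
    ext
    · exact e2
    · exact e3
    · simpa [e2] using e4
    · rw [hs]; rfl
  · rw [eq_bot_iff]
    intro x hx
    obtain ⟨g, rfl⟩ := QuotientGroup.mk'_surjective _ x
    have key : ∀ a b : ZMod p, g.1 * (Dm _ (-1) - Nm _ a b 0) = (Dm _ (-1) - Nm _ a b 0) * g.1 := by
      intro a b
      have h := Subgroup.mem_centralizer_iff.1 hx _ ⟨⟨a, b, 0, -1⟩, rfl⟩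
      rw [MonoidHom.comp_apply, ← map_mul, ← map_mul] at h
      obtain ⟨r, -, hr⟩ := Matrix.SpecialLinearGroup.mem_center_iff.1 (QuotientGroup.eq.1 h)
      have hm : (hom p k ⟨a, b, 0, -1⟩).1 = Dm _ (-1) - Nm _ a b 0 := by
        change mat _ _ = _
        rw [mat_eq]; simp [sub_eq_add_neg]
      obtain ⟨t, ht⟩ : ∃ t, t = hom p k ⟨a, b, 0, -1⟩ := ⟨_, rfl⟩
      rw [← ht] at hr hm
      have h1 : g.1 * t.1 = r • (t.1 * g.1) := by
        have : (t * g).1 * scalar _ r = (g * t).1 := by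
          rw [hr, ← Matrix.SpecialLinearGroup.coe_mul, mul_inv_cancel_left]
        rw [Matrix.SpecialLinearGroup.coe_mul, Matrix.SpecialLinearGroup.coe_mul] at this
        rw [← this, scalar_apply, ← smul_eq_mul_diagonal]
      have htr : t.1.trace = 1 := by
        rw [hm, trace_sub, trace_Nm, sub_zero]
        have := trace_Dm (R := ZMod p) (2 * k)
        rwa [show 2 * (2 * k) = 4 * k by ring] at this
      have hr1 : r = 1 := by
        have h3 : (g.1 * t.1 * (g⁻¹).1).trace = 1 := by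
          rw [trace_mul_comm, ← Matrix.mul_assoc, ← Matrix.SpecialLinearGroup.coe_mul, inv_mul_cancel]
          simpa using htr
        rw [h1, Matrix.smul_mul, Matrix.mul_assoc, ← Matrix.SpecialLinearGroup.coe_mul, mul_inv_cancel,
          trace_smul] at h3
        simpa [htr] using h3
      rw [← hm, h1, hr1, one_smul]
    have hT := key 0 0
    rw [Nm_zero, sub_zero] at hT
    have hX := key 1 0
    have hY := key 0 1
    rw [mul_sub, sub_mul, hT, sub_right_inj] at hX hY
    have hg := scalar_of_comm h2 (by omega) g.1 hT hX hY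
    rw [Subgroup.mem_bot, QuotientGroup.mk'_apply, QuotientGroup.eq_one_iff,
      Matrix.SpecialLinearGroup.mem_center_iff]
    refine ⟨g.1 0 0, ?_, hg.symm⟩
    have := g.2
    rw [hg] at this
    simpa using this

end CL.Ord.Kron
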