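import Mathlib
import Cfsg.Agent.ORD.Winter

/-!
# Order of a `p`-group in terms of the degree and field of a faithful irreducible character
-/

set_option autoImplicit false
set_option linter.unusedSectionVars false
open Cfsg CL.Char
open scoped ComplexConjugate commutatorElement

namespace CL.Ord

universe u
variable {G : Type*} [Group G] {p : ℕ}

/-- the Galois conjugates of a function -/
def galConj (χ : G → ℂ) : Set (G → ℂ) := {ψ | ∃ σ : ℂ ≃+* ℂ, ψ = fun g => σ (χ g)}

theorem galConj_finite [Finite G] {χ : G → ℂ} (hχ : IsIrrCharacter G χ) : (galConj χ).Finite := by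
  refine (Set.finite_range fun ψ : IrrCharacter G => (ψ : G → ℂ)).subset ?_
  rintro _ ⟨σ, rfl⟩
  exact ⟨⟨_, hχ.gal' σ⟩, rfl⟩

theorem ncard_galConj_le_finrank [Finite G] {χ : G → ℂ} (hχ : IsGeneralizedCharacter G χ) :
    (galConj χ).ncard ≤ Module.finrank ℚ (IntermediateField.adjoin ℚ (Set.range χ)) := by
  have : Finite (Set.range χ) := (Set.finite_range χ).to_subtype
  have : FiniteDimensional ℚ (IntermediateField.adjoin ℚ (Set.range χ)) :=
    IntermediateField.finiteDimensional_adjoin (by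
      rintro _ ⟨g, rfl⟩
      exact (hχ.isAlgebraic g).isIntegral)
  rw [← AlgHom.card ℚ _ ℂ, ← Nat.card_eq_fintype_card]
  have hsub : galConj χ ⊆ Set.range
      fun φ : IntermediateField.adjoin ℚ (Set.range χ) →ₐ[ℚ] ℂ => fun g =>
        φ ⟨χ g, IntermediateField.subset_adjoin _ _ ⟨g, rfl⟩⟩ := by
    rintro _ ⟨σ, rfl⟩
    exact ⟨(ratAlgEquiv σ : ℂ →ₐ[ℚ] ℂ).comp (IntermediateField.val _), rfl⟩
  refine (Set.ncard_le_ncard hsub (Set.finite_range _)).trans ?_
  rw [← Set.image_univ, ← Set.ncard_univ]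
  exact Set.ncard_image_le Set.finite_univ

theorem totient_le_ncard_galConj [Finite G] (lam : G →* ℂˣ) :
    (lam.ker.index).totient ≤ (galConj fun g => (lam g : ℂ)).ncard := by
  classical
  have : Finite lam.range := Finite.of_surjective _ lam.rangeRestrict_surjective
  have hc : IsCyclic lam.range :=
    isCyclic_of_injective_hom lam.range.subtype lam.range.subtype_injective
  obtain ⟨⟨_, g, rfl⟩, hg⟩ := IsCyclic.exists_generator (α := lam.range)
  have ho : orderOf (lam g : ℂ) = lam.ker.index := by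
    rw [orderOf_units, Subgroup.index_ker, ← orderOf_eq_card_of_forall_mem_zpowers hg]
    exact Subgroup.orderOf_coe (⟨lam g, g, rfl⟩ : lam.range)
  have h0 : lam.ker.index ≠ 0 := Subgroup.index_ne_zero_of_finite
  have hpr : IsPrimitiveRoot (lam g : ℂ) lam.ker.index := ho ▸ IsPrimitiveRoot.orderOf _
  rw [← hpr.card_primitiveRoots, ← Set.ncard_coe_finset]
  refine le_trans (Set.ncard_le_ncard (t := (fun ψ : G → ℂ => ψ g) '' galConj _) ?_
    ((galConj_finite (isIrrCharacter_hom lam)).image _))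
    (Set.ncard_image_le (galConj_finite (isIrrCharacter_hom lam)))
  intro ξ hξ
  obtain ⟨σ, hσ⟩ := exists_ringEquiv_of_isPrimitiveRoot h0 hpr
    ((mem_primitiveRoots (Nat.pos_of_ne_zero h0)).mp hξ)
  exact ⟨_, ⟨σ, rfl⟩, hσ⟩

theorem pField_aux [hp : Fact p.Prime] (m : ℕ) : ∀ (G : Type u) [Group G] [Finite G],
    Nat.card G = m → IsPGroup p G → ∀ χ : G → ℂ, IsIrrCharacter G χ → ∀ a t : ℕ,
      (charKer χ).index = p ^ a → (galConj χ).ncard ≤ (p - 1) * p ^ t →
      (p - 1) * a ≤ (charDegree χ - 1) + (p - 1) * (t + 1) * charDegree χ := by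
  induction m using Nat.strong_induction_on with | _ m ih => ?_
  intro G _ _ hm hG χ hχ a t ha ht
  classical
  have := Fintype.ofFinite G
  have hp2 := hp.out.two_le
  by_cases h1 : χ 1 = 1
  · obtain ⟨lam, rfl⟩ := hχ.isCharacter.exists_hom h1
    have hk : charKer (fun g => (lam g : ℂ)) = lam.ker := by
      ext g
      rw [hχ.mem_charKer, MonoidHom.mem_ker]
      simp
    have h2 := (totient_le_ncard_galConj lam).trans ht
    rw [← hk, ha] at h2
    rw [charDegree_hom]
    rcases a with _ | a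
    · simp
    rw [Nat.totient_prime_pow_succ hp.out, mul_comm] at h2
    have h3 := Nat.le_of_mul_le_mul_left h2 (by omega)
    have h4 := (Nat.pow_le_pow_iff_right hp.out.one_lt).mp h3
    simpa using Nat.mul_le_mul_left (p - 1) (Nat.succ_le_succ h4)
  have := hG.isNilpotent
  obtain ⟨H₀, lam, hind⟩ := exists_monomial_of_isNilpotent hχ
  have hH₀ : H₀ ≠ ⊤ := by
    rintro rfl
    apply h1
    rw [hχ.apply_one_eq_charDegree, hind, charDegree_indFun _ ((isIrrCharacter_hom lam).isCharacter),
      charDegree_hom]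
    simp
  obtain ⟨H, hH, hle⟩ := (eq_top_or_exists_le_coatom H₀).resolve_left hH₀
  have hHn := CL.PG.coatom_normal hG hH
  have hHi := CL.PG.coatom_index hG hH
  have := Fintype.ofFinite H
  obtain ⟨ψ, hψe⟩ : ∃ ψ : H → ℂ, ψ = indFun (H₀.subgroupOf H) (subOf H₀ H fun h => (lam h : ℂ)) :=
    ⟨_, rfl⟩
  have hψc : IsCharacter H ψ := hψe ▸ (((isIrrCharacter_hom lam).isCharacter).subOf hle).ind
  have e : indFun H ψ = χ := by rw [hψe, indFun_indFun_subOf hle, hind]
  have hψ : IsIrrCharacter H ψ := hψc.irr_of_ind (e ▸ hχ)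
  have hI : inertia H ψ = H := (ind_irr_iff_inertia_eq hψ).mp (e ▸ hχ)
  have hd : charDegree χ = p * charDegree ψ := by rw [← e, charDegree_indFun _ hψc, hHi]
  have hd0 := hψ.charDegree_pos
  obtain ⟨b, hb⟩ : ∃ b, (charKer ψ).index = p ^ b := (hG.to_subgroup H).index _
  have IH := fun t => ih _ (hm ▸ CL.card_lt_of_ne_top hH.1) H rfl (hG.to_subgroup H) ψ hψ b t hb
  have hmap : ∀ φ ∈ galConj ψ, indFun H φ ∈ galConj χ := by
    rintro _ ⟨σ, rfl⟩
    exact ⟨σ, funext fun g => by rw [← e]; exact indFun_gal H ψ (σ : ℂ →+* ℂ) g⟩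
  have hirr : ∀ φ ∈ galConj ψ, IsIrrCharacter H φ := by
    rintro _ ⟨σ, rfl⟩
    exact hψ.gal' σ
  have hker : ∀ g : G, charKer (conjN H g ψ) = (charKer ψ).comap (conjEquiv H g).toMonoidHom :=
    fun g => hψc.charKer_comp (conjEquiv H g).toMonoidHom
  by_cases hc : ∃ g ∉ H, conjN H g ψ ∈ galConj ψ
  · obtain ⟨g, hg, σ, hσ⟩ := hc
    have hk : (charKer ψ).comap (conjEquiv H g).toMonoidHom = charKer ψ := by
      rw [← hker, hσ]; exact charKer_gal ψ (σ : ℂ →+* ℂ)
    have hN : ((charKer ψ).map H.subtype).Normal := by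
      rw [← Subgroup.normalizer_eq_top_iff]
      refine hH.2 _ (lt_of_le_of_ne ?_ fun e => hg (e ▸ ?_))
      · have := hψ.charKer_normal
        rw [← Subgroup.normal_subgroupOf_iff_le_normalizer (Subgroup.map_subtype_le _)]
        rwa [Subgroup.subgroupOf, Subgroup.comap_map_eq_self_of_injective H.subtype_injective]
      · rw [Subgroup.mem_normalizer_iff]
        intro h
        constructor
        · rintro ⟨h, hh, rfl⟩
          rw [← hk] at hh
          exact ⟨_, hh, rfl⟩
        · rintro ⟨k, hk', hkh⟩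
          have hh : h ∈ H := by
            have := hHn.conj_mem _ k.2 g⁻¹
            rw [show (k : G) = g * h * g⁻¹ from hkh] at this
            simpa [mul_assoc] using this
          refine ⟨⟨h, hh⟩, ?_, rfl⟩
          rw [← hk]
          have : (conjEquiv H g).toMonoidHom ⟨h, hh⟩ = k := Subtype.ext hkh.symm
          exact Subgroup.mem_comap.mpr (this ▸ hk')
    have hle' : (charKer ψ).map H.subtype ≤ charKer χ := by
      rw [← e]
      refine le_charKer_indFun (Subgroup.map_subtype_le _) hψc ?_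
      rintro _ ⟨n, hn, rfl⟩
      exact apply_eq_of_mem_charKer hn
    have h2 := Subgroup.index_dvd_of_le hle'
    rw [Subgroup.index_map_subtype, ha, hb, hHi, ← pow_succ] at h2
    have h3 := (Nat.pow_dvd_pow_iff_le_right hp.out.one_lt).mp h2
    have h4 : (galConj ψ).ncard ≤ (p - 1) * p ^ (t + 1) := by
      have hf := galConj_finite hψ
      have hf' := galConj_finite hχ
      have := Finset.card_le_mul_card_image_of_maps_to (s := hf.toFinset) (t := hf'.toFinset)
        (f := indFun H) (fun φ hφ => by simpa using hmap φ (by simpa using hφ)) p (by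
          intro η _
          by_cases h0 : (hf.toFinset.filter fun φ => indFun H φ = η) = ∅
          · simp [h0]
          obtain ⟨φ, hφ⟩ := Finset.nonempty_iff_ne_empty.mpr h0
          simp only [Finset.mem_filter, Set.Finite.mem_toFinset] at hφ
          refine le_trans (Finset.card_le_card (t := conjugates H φ) fun φ' hφ' => ?_) ?_
          · simp only [Finset.mem_filter, Set.Finite.mem_toFinset] at hφ'
            exact (indFun_eq_indFun_iff (hirr _ hφ.1) (hirr _ hφ'.1)).mp (hφ.2.trans hφ'.2.symm)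
          · rw [card_conjugates, ← hHi]
            exact Nat.le_of_dvd (Nat.pos_of_ne_zero Subgroup.index_ne_zero_of_finite)
              (Subgroup.index_dvd_of_le (le_inertia (hirr _ hφ.1).isClassFunction)))
      rw [← Set.ncard_eq_toFinset_card _ hf, ← Set.ncard_eq_toFinset_card _ hf'] at this
      calc _ ≤ p * ((p - 1) * p ^ t) := this.trans (Nat.mul_le_mul_left p ht)
        _ = _ := by ring
    have h5 := IH _ h4
    rw [hd]
    obtain ⟨q, rfl⟩ : ∃ q, p = q + 2 := ⟨p - 2, by omega⟩
    obtain ⟨d, hd'⟩ : ∃ d, charDegree ψ = d + 1 := ⟨charDegree ψ - 1, by omega⟩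
    rw [hd'] at h5 ⊢
    have e1 : (q + 2) * (d + 1) - 1 = (q + 2) * d + q + 1 := by
      rw [mul_add]; omega
    simp only [show q + 2 - 1 = q + 1 from rfl, Nat.add_sub_cancel, e1] at h5 ⊢
    have h6 := Nat.mul_le_mul_left (q + 1) h3
    nlinarith [Nat.zero_le (q * d), Nat.zero_le (q * q * d), Nat.zero_le (q * t),
      Nat.zero_le (q * q * t), Nat.zero_le (q * t * d), Nat.zero_le (q * q * t * d),
      Nat.zero_le (t * d), Nat.zero_le (q * q)]
  · push Not at hc
    have h4 : (galConj ψ).ncard ≤ (p - 1) * p ^ t := by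
      refine le_trans (Set.ncard_le_ncard_of_injOn (indFun H) hmap ?_ (galConj_finite hχ)) ht
      intro φ hφ φ' hφ' h
      obtain ⟨g, hg⟩ := mem_conjugates.mp ((indFun_eq_indFun_iff (hirr _ hφ) (hirr _ hφ')).mp h)
      obtain ⟨σ, rfl⟩ := hφ
      obtain ⟨τ, rfl⟩ := hφ'
      by_cases hgH : g ∈ H
      · rw [← hg, conjN_of_mem (hψ.gal' σ).isClassFunction hgH]
      · refine absurd ⟨τ.trans σ.symm, funext fun x => ?_⟩ (hc g hgH)
        have := congrFun hg x
        simp only [conjN_apply] at this ⊢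
        simp [← this]
    have h5 := IH _ h4
    have hle' : (⨅ φ : conjugates H ψ, charKer (φ : H → ℂ)).map H.subtype ≤ charKer χ := by
      rintro _ ⟨x, hx, rfl⟩
      have r := res_indFun_eq_sum_conjugates (N := H) hψ.isClassFunction
      rw [e] at r
      rw [hχ.mem_charKer]
      refine (congrFun r x).trans (Eq.trans ?_ (congrFun r 1).symm)
      simp only [Pi.smul_apply, Finset.sum_apply]
      congr 1
      exact Finset.sum_congr rfl fun φ hφ =>
        apply_eq_of_mem_charKer (Subgroup.mem_iInf.mp hx ⟨φ, hφ⟩)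
    have h2 := Nat.le_of_dvd (Nat.pos_of_ne_zero Subgroup.index_ne_zero_of_finite)
      (Subgroup.index_dvd_of_le hle')
    rw [Subgroup.index_map_subtype, ha, hHi] at h2
    have h6 := Subgroup.index_iInf_le fun φ : conjugates H ψ => charKer (φ : H → ℂ)
    rw [Finset.prod_congr rfl (g := fun _ => p ^ b) (fun φ _ => by
      obtain ⟨g, hg⟩ := mem_conjugates.mp φ.2
      rw [← hg, hker, Subgroup.index_comap_of_surjective _ (conjEquiv H g).surjective, hb]),
      Finset.prod_const, Finset.card_univ, Fintype.card_coe, card_conjugates, hI, hHi] at h6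
    have h7 := h2.trans (Nat.mul_le_mul_right p h6)
    rw [← pow_mul, ← pow_succ] at h7
    have h3 := (Nat.pow_le_pow_iff_right hp.out.one_lt).mp h7
    rw [hd]
    obtain ⟨q, rfl⟩ : ∃ q, p = q + 2 := ⟨p - 2, by omega⟩
    obtain ⟨d, hd'⟩ : ∃ d, charDegree ψ = d + 1 := ⟨charDegree ψ - 1, by omega⟩
    rw [hd'] at h5 ⊢
    have e1 : (q + 2) * (d + 1) - 1 = (q + 2) * d + q + 1 := by
      rw [mul_add]; omega
    simp only [show q + 2 - 1 = q + 1 from rfl, Nat.add_sub_cancel, e1] at h5 ⊢
    have h8 := Nat.mul_le_mul_left (q + 1) h3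
    have h9 := Nat.mul_le_mul_left (q + 2) h5
    nlinarith

theorem pField [Finite G] [hp : Fact p.Prime] {a : ℕ} (hG : Nat.card G = p ^ a) {χ : G → ℂ}
    (hχ : IsIrrCharacter G χ) (hk : charKer χ = ⊥) {t : ℕ}
    (h : Module.finrank ℚ (IntermediateField.adjoin ℚ (Set.range χ)) = (p - 1) * p ^ t) :
    (p - 1) * a ≤ (charDegree χ - 1) + (p - 1) * (t + 1) * charDegree χ :=
  pField_aux _ G rfl (IsPGroup.of_card hG) χ hχ a t (by rw [hk, Subgroup.index_bot, hG])
    (h ▸ ncard_galConj_le_finrank hχ.isGen)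

end CL.Ord
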