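import Mathlib
import Cfsg.Agent.ORD.Winter
import Cfsg.Agent.CHAR.FS
import Cfsg.Agent.CHAR.Blichfeldt
import Cfsg.Agent.FGS.Blichfeldt

/-!
# Irreducible linear groups of degree less than `2p`
-/

set_option autoImplicit false
set_option linter.unusedSectionVars false
open Cfsg CL.Char Matrix
open scoped ComplexConjugate commutatorElement ComplexOrder

namespace CL.Ord

variable {G : Type*} [Group G]

theorem exists_unitary_rep [Finite G] {χ : G → ℂ} (hχ : IsCharacter G χ) :
    ∃ (n : ℕ) (R : G →* Matrix (Fin n) (Fin n) ℂ), (∀ h, (R h)ᴴ = R h⁻¹) ∧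
      ∀ h, (R h).trace = χ h := by
  obtain ⟨n, ρ, rfl⟩ := hχ
  let T : G →* Matrix (Fin n) (Fin n) ℂ :=
    { toFun := repMat ρ, map_one' := repMat_one ρ, map_mul' := repMat_mul ρ }
  obtain ⟨S, hS⟩ := Blich.exists_unitary T
  let φ : Matrix (Fin n) (Fin n) ℂ ≃ₐ[ℂ] Matrix (Fin n) (Fin n) ℂ :=
    MulSemiringAction.toAlgEquiv ℂ _ (ConjAct.toConjAct S)
  refine ⟨n, φ.toMonoidHom.comp T, hS, fun h => ?_⟩
  change (S.val * T h * S⁻¹.val).trace = _
  rw [Matrix.trace_mul_cycle, S.inv_mul, Matrix.one_mul]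
  exact trace_repMat ρ h

theorem commute_of_two_eigenvalues [Finite G] {χ : G → ℂ} (hχ : IsCharacter G χ)
    (hk : charKer χ = ⊥) {z : G} {ω a b : ℂ} (hω : ω * conj ω = 1) (h1 : ω ≠ 1)
    (hre : 1 / 2 < ω.re) (h : ∀ k : ℤ, χ (z ^ k) = a * ω ^ k + b) {x : G}
    (hx : x ∈ Subgroup.normalClosure {z}) : x * z = z * x := by
  obtain ⟨n, R, hR, htr⟩ := exists_unitary_rep hχ
  have hω0 : ω ≠ 0 := left_ne_zero_of_mul_eq_one hω
  have hωc : conj ω = ω⁻¹ := (eq_inv_of_mul_eq_one_right hω)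
  obtain ⟨D, hD⟩ : ∃ D, D = R z := ⟨_, rfl⟩
  obtain ⟨D', hD'⟩ : ∃ D', D' = R z⁻¹ := ⟨_, rfl⟩
  have hDD : D * D' = 1 := by rw [hD, hD', ← map_mul, mul_inv_cancel, map_one]
  have hDD' : D' * D = 1 := by rw [hD, hD', ← map_mul, inv_mul_cancel, map_one]
  have hDH : Dᴴ = D' := by rw [hD, hD', hR]
  have hA : D * D - (1 + ω) • D + ω • 1 = 0 := by
    rw [← Matrix.trace_mul_conjTranspose_self_eq_zero_iff]
    have e : (D * D - (1 + ω) • D + ω • 1) * (D * D - (1 + ω) • D + ω • 1)ᴴ =
        (1 + (1 + ω) * (1 + conj ω) + ω * conj ω) • (1 : Matrix (Fin n) (Fin n) ℂ) -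
          ((1 + conj ω) + (1 + ω) * conj ω) • D - ((1 + ω) + ω * (1 + conj ω)) • D' +
          conj ω • (D * D) + ω • (D' * D') := by
      simp only [conjTranspose_add, conjTranspose_sub, conjTranspose_mul, conjTranspose_smul,
        conjTranspose_one, hDH, star_add, star_one, RCLike.star_def]
      have e1 : D * D * (D' * D') = 1 := by
        rw [mul_assoc, ← mul_assoc D D', hDD, one_mul, hDD]
      have e2 : D * D * D' = D := by rw [mul_assoc, hDD, mul_one]
      have e3 : D * (D' * D') = D' := by rw [← mul_assoc, hDD, one_mul]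
      simp only [mul_add, add_mul, mul_sub, sub_mul, smul_mul_assoc, mul_smul_comm, e1, e2, e3, hDD,
        mul_one, one_mul]
      module
    have t0 : (1 : Matrix (Fin n) (Fin n) ℂ).trace = a + b := by
      rw [← map_one R, htr, ← zpow_zero z, h]; simp
    have t1 : D.trace = a * ω + b := by rw [hD, htr, ← zpow_one z, h]; simp
    have t2 : D'.trace = a * ω⁻¹ + b := by rw [hD', htr, ← _root_.zpow_neg_one, h]; simp
    have t3 : (D * D).trace = a * ω ^ 2 + b := by
      rw [hD, ← map_mul, htr, ← zpow_two, h]; simp [pow_two]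
    have t4 : (D' * D').trace = a * ω⁻¹ ^ 2 + b := by
      rw [hD', ← map_mul, htr, show z⁻¹ * z⁻¹ = z ^ (-2 : ℤ) by group, h]
      simp [pow_two]
    rw [e]
    simp only [trace_add, trace_sub, trace_smul, t0, t1, t2, t3, t4, smul_eq_mul, hωc]
    field_simp
    ring
  have h1' : 1 - ω ≠ 0 := sub_ne_zero.mpr h1.symm
  obtain ⟨E, hE⟩ : ∃ E, E = (1 - ω)⁻¹ • (D - ω • 1) := ⟨_, rfl⟩
  have hDE' : D = (1 - ω) • E + ω • 1 := by
    rw [hE, smul_smul, mul_inv_cancel₀ h1', one_smul, sub_add_cancel]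
  have hDE : D * E = E := by
    rw [hE, mul_smul_comm, mul_sub, mul_smul_comm, mul_one]
    congr 1
    rw [← sub_eq_zero, ← hA]
    module
  have hED : E * D = E := by
    rw [hE, smul_mul_assoc, sub_mul, smul_mul_assoc, one_mul]
    congr 1
    rw [← sub_eq_zero, ← hA]
    module
  have hEE : E * E = E := by
    conv_lhs => lhs; rw [hE]
    rw [smul_mul_assoc, sub_mul, hDE, smul_mul_assoc, one_mul]
    have : E - ω • E = (1 - ω) • E := by module
    rw [this, smul_smul, inv_mul_cancel₀ h1', one_smul]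
  have hD'E : D' = (1 - ω⁻¹) • E + ω⁻¹ • 1 := by
    have : D * ((1 - ω⁻¹) • E + ω⁻¹ • 1) = 1 := by
      rw [mul_add, mul_smul_comm, mul_smul_comm, hDE, mul_one, hDE', smul_add, smul_smul, smul_smul,
        inv_mul_cancel₀ hω0, one_smul, ← add_assoc, ← add_smul]
      have : 1 - ω⁻¹ + ω⁻¹ * (1 - ω) = 0 := by field_simp; ring
      rw [this, zero_smul, zero_add]
    exact left_inv_eq_right_inv hDD' this
  have hEH : Eᴴ = E := by
    conv_lhs => rw [hE]
    simp only [conjTranspose_smul, conjTranspose_sub, conjTranspose_one, hDH, star_inv₀, star_sub,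
      star_one, RCLike.star_def, hωc]
    have : 1 - ω⁻¹ ≠ 0 := sub_ne_zero.mpr fun e => h1 (inv_eq_one.mp e.symm)
    rw [hD'E, add_sub_cancel_right, smul_smul, inv_mul_cancel₀ this, one_smul]
  have hre1 : ω.re ≤ 1 := by
    have := Complex.re_le_norm ω
    rw [Complex.mul_conj, Complex.normSq_eq_norm_sq] at hω
    have h2 : ‖ω‖ ^ 2 = 1 := by exact_mod_cast hω
    nlinarith [norm_nonneg ω]
  have hH : (D + Dᴴ - 1).PosDef := by
    have e : D + Dᴴ - 1 = ((2 * ω.re - 1 : ℝ) : ℂ) • (1 : Matrix (Fin n) (Fin n) ℂ) +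
        ((2 - 2 * ω.re : ℝ) : ℂ) • (Eᴴ * E) := by
      rw [hEH, hEE, hDH, hD'E, hDE', ← hωc]
      have : ω + conj ω = 2 * ω.re := by rw [Complex.add_conj]; simp
      push_cast
      rw [← this]
      module
    rw [e]
    refine (PosDef.one.smul ?_).add_posSemidef
      ((posSemidef_conjTranspose_mul_self E).smul ?_)
    · exact_mod_cast (by linarith : (0 : ℝ) < 2 * ω.re - 1)
    · exact_mod_cast (by linarith : (0 : ℝ) ≤ 2 - 2 * ω.re)
  have hc := Blich.comm_of_mem_normalClosure R hR (g := z) (c := 1) (E := E) (by simp) hEH hEE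
    (by rw [one_smul, ← hD, hDE]) (by rw [one_smul, ← hD, hED]) (fun X hX => by
      rw [one_smul, ← hD] at hX
      rw [hE, smul_mul_assoc, mul_smul_comm, sub_mul, mul_sub, hX]
      simp) (by rw [one_smul, ← hD]; exact hH) hx
  have e : R (x * z) = R (z * x) := by
    rw [map_mul, map_mul, ← hD, hDE', mul_add, add_mul, mul_smul_comm, smul_mul_assoc, hc]
    simp
  have : x * z * (z * x)⁻¹ ∈ charKer χ := by
    rw [hχ.mem_charKer, ← htr, ← htr, map_mul, e, ← map_mul, mul_inv_cancel]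
  rw [hk, Subgroup.mem_bot, mul_inv_eq_one] at this
  exact this

theorem half_lt_re_exp {p : ℕ} (h7 : 7 ≤ p) :
    1 / 2 < (Complex.exp (2 * Real.pi * Complex.I / p)).re := by
  have e : (2 * Real.pi * Complex.I / p : ℂ) = ((2 * Real.pi / p : ℝ) : ℂ) * Complex.I := by
    push_cast; ring
  rw [e, Complex.exp_ofReal_mul_I_re, ← Real.cos_pi_div_three]
  have hp : (7 : ℝ) ≤ p := by exact_mod_cast h7
  apply Real.cos_lt_cos_of_nonneg_of_le_pi_div_two
  · positivity
  · linarith [Real.pi_pos]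
  · rw [div_lt_div_iff₀ (by linarith) (by norm_num)]
    nlinarith [Real.pi_pos]

theorem not_sq_dvd_index_pCore [Finite G] {χ : G → ℂ} (hχ : IsIrrCharacter G χ)
    (hk : charKer χ = ⊥) {p : ℕ} [hp : Fact p.Prime] (h7 : 7 ≤ p) (hn : charDegree χ < 2 * p)
    (hnp : charDegree χ ≠ p) {P : Subgroup G} (hP : IsPGroup p P) (hne : commutator P ≠ ⊥) :
    ¬ p ^ 2 ∣ (pCore p G).index := by
  have := Fintype.ofFinite G
  have := Fintype.ofFinite P
  obtain ⟨c, hc⟩ := hP.exists_card_eq
  have hlt : ∀ {η : P → ℂ}, IsCharacter P η → charDegree η < p → commutator P ≤ charKer η :=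
    fun hη h => hη.commutator_le_charKer_of_lt fun q hq hd => by
      rw [hc] at hd
      rwa [(Nat.prime_dvd_prime_iff_eq hq hp.out).mp (hq.dvd_of_dvd_pow hd)]
  have hkP : charKer (fun x : P => χ x) = ⊥ := by
    rw [hχ.isCharacter.charKer_res, hk, Subgroup.bot_subgroupOf]
  obtain ⟨z, hz, hzc, hzo⟩ := CL.PN.exists_mem_center_orderOf_eq hP _ hne
  have hz1 : z ≠ 1 := fun e => by
    rw [e, orderOf_one] at hzo
    exact hp.out.ne_one hzo.symm
  obtain ⟨θ, hθ, hin, hzθ⟩ : ∃ θ, IsIrrCharacter P θ ∧ classInner (fun x : P => χ x) θ ≠ 0 ∧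
      z ∉ charKer θ := by
    by_contra hcon
    push Not at hcon
    have := (hχ.isCharacter.res P).mem_charKer_iff_constituents.mpr hcon
    rw [hkP] at this
    exact hz1 this
  have hle := (hχ.isCharacter.res P).charDegree_le_of_inner_ne_zero hθ hin
  rw [charDegree_res] at hle
  have hθp : charDegree θ = p := by
    obtain ⟨j, -, hj⟩ := (Nat.dvd_prime_pow hp.out).mp (hc ▸ hθ.charDegree_dvd_card)
    rcases j with _ | _ | j
    · exact absurd (hlt hθ.isCharacter (by rw [hj]; simpa using hp.out.one_lt) hz) hzθ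
    · simpa using hj
    · exfalso
      rw [hj, pow_succ, pow_succ] at hle
      have : 1 * p * p ≤ p ^ j * p * p := by
        gcongr
        exact Nat.one_le_pow _ _ hp.out.pos
      nlinarith
  obtain ⟨e, he⟩ := (hχ.isCharacter.res P).exists_nat_inner hθ.isCharacter
  have hΛ := (hχ.isCharacter.res P).sub_smul_irr hθ he (k := 1)
    (Nat.pos_of_ne_zero fun h => hin (by rw [he, h]; simp))
  have hΛ1 : charDegree ((fun x : P => χ x) - ((1 : ℕ) : ℂ) • θ) = charDegree χ - p :=
    charDegree_eq_of_apply_one (by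
      simp [hχ.apply_one_eq_charDegree, hθ.apply_one_eq_charDegree, hθp, Nat.cast_sub (hθp ▸ hle)])
  have hΛk := hlt hΛ (by omega)
  obtain ⟨ω, hω⟩ : ∃ ω, ω = Complex.exp (2 * Real.pi * Complex.I / p) := ⟨_, rfl⟩
  have hωp : IsPrimitiveRoot ω p := hω ▸ Complex.isPrimitiveRoot_exp p hp.out.ne_zero
  have hzZ := hθ.center_le_charCenter hzc
  obtain ⟨j, hj⟩ : ∃ j : ℕ, (charCenterHom θ hθ.one_ne_zero ⟨z, hzZ⟩ : ℂ) ^ j = ω := by
    have : NeZero p := ⟨hp.out.ne_zero⟩
    have h1 : IsPrimitiveRoot (charCenterHom θ hθ.one_ne_zero ⟨z, hzZ⟩ : ℂ) p := by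
      have h2 : orderOf (charCenterHom θ hθ.one_ne_zero ⟨z, hzZ⟩ : ℂ) = p := by
        refine orderOf_eq_prime ?_ fun h => hzθ ?_
        · rw [← Units.val_pow_eq_pow_val, ← map_pow]
          have : (⟨z, hzZ⟩ : charCenter θ) ^ p = 1 :=
            Subtype.ext (by simpa using hzo ▸ pow_orderOf_eq_one z)
          rw [this, map_one, Units.val_one]
        · rw [hθ.mem_charKer, apply_eq_charCenterHom_mul θ hθ.one_ne_zero ⟨z, hzZ⟩, h, one_mul]
      exact h2 ▸ IsPrimitiveRoot.orderOf _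
    obtain ⟨j, -, hj⟩ := h1.eq_pow_of_pow_eq_one hωp.pow_eq_one
    exact ⟨j, hj⟩
  obtain ⟨w, hw⟩ : ∃ w, w = z ^ j := ⟨_, rfl⟩
  have hwD : w ∈ commutator P := hw ▸ pow_mem hz j
  have hval : ∀ k : ℤ, χ ((w : G) ^ k) = p * ω ^ k + (charDegree χ - p) := by
    intro k
    have e1 := apply_eq_of_mem_charKer (hΛk (zpow_mem hwD k))
    have e2 := apply_eq_charCenterHom_mul θ hθ.one_ne_zero ((⟨z, hzZ⟩ ^ j) ^ k)
    rw [map_zpow, map_pow, Units.val_zpow_eq_zpow_val, Units.val_pow_eq_pow_val, hj,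
      hθ.apply_one_eq_charDegree, hθp] at e2
    simp only [Pi.sub_apply, Nat.cast_one, one_smul, SubgroupClass.coe_zpow, OneMemClass.coe_one,
      hχ.apply_one_eq_charDegree, hθ.apply_one_eq_charDegree, hθp] at e1
    have e3 : θ (w ^ k) = ω ^ k * p := by rw [← e2, hw]; rfl
    rw [e3] at e1
    linear_combination e1
  have hω1 : ω ≠ 1 := hωp.ne_one hp.out.one_lt
  have hcomm := fun x => commute_of_two_eigenvalues hχ.isCharacter hk (x := x)
    (by rw [← inv_eq_conj_of_pow_eq_one hp.out.ne_zero hωp.pow_eq_one]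
        exact mul_inv_cancel₀ (hωp.ne_zero hp.out.ne_zero))
    hω1 (hω ▸ half_lt_re_exp h7) hval
  obtain ⟨N, hN⟩ : ∃ N, N = Subgroup.normalClosure {(w : G)} := ⟨_, rfl⟩
  have hNn : N.Normal := hN ▸ inferInstance
  rw [← hN] at hcomm
  have hwN : (w : G) ∈ N := hN ▸ Subgroup.subset_normalClosure rfl
  have hNab : N ≤ Subgroup.centralizer (N : Set G) := by
    refine hN.le.trans (Subgroup.normalClosure_le_normal ?_)
    rintro _ rfl
    exact Subgroup.mem_centralizer_iff.mpr hcomm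
  have hnp' : (charDegree χ : ℂ) - p ≠ 0 := sub_ne_zero.mpr (by exact_mod_cast hnp)
  have hp0 : (p : ℂ) ≠ 0 := by exact_mod_cast hp.out.ne_zero
  have hwZ : (w : G) ∉ charCenter χ := fun h => by
    have e := apply_mul_of_mem_charCenter h w
    have e1 := hval 1
    have e2 := hval 2
    rw [zpow_one, zpow_one] at e1
    rw [zpow_two, zpow_two] at e2
    rw [e1, e2, hχ.apply_one_eq_charDegree] at e
    have : (p : ℂ) * (charDegree χ - p) * (ω - 1) ^ 2 = 0 := by linear_combination e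
    exact mul_ne_zero (mul_ne_zero hp0 hnp') (pow_ne_zero 2 (sub_ne_zero.mpr hω1)) this
  have := Fintype.ofFinite N
  rcases homogeneous_or_induced N hχ with h | ⟨T, ψ, hNT, hT, hψ, e⟩
  · refine absurd (IsHomog.le_charCenter h hχ.isCharacter ?_ hwN) hwZ
    rw [Subgroup.commutator_eq_bot_iff_le_centralizer.mpr hNab]
    exact bot_le
  have hd : charDegree χ = T.index * charDegree ψ := by
    rw [← e, charDegree_indFun _ hψ.isCharacter]
  have hT2 : 2 ≤ T.index := by
    have h0 : T.index ≠ 0 := Subgroup.index_ne_zero_of_finite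
    have h1 : T.index ≠ 1 := fun h => hT (Subgroup.index_eq_one.mp h)
    omega
  have hψ0 := hψ.charDegree_pos
  have hK := CL.FGS.Blich.index_normalCore_dvd_factorial T
  by_cases hm : T.index < p
  · exfalso
    have hPK : P ≤ T.normalCore := fun x hx => (pElt_of_mem hP hx).mem_of_pow_mem
      (fun h => absurd (hp.out.dvd_factorial.mp (h.trans hK)) (not_le.mpr hm))
      (T.normalCore.pow_index_mem x)
    have hNk : N ≤ ((charKer ψ).map T.subtype).normalCore := by
      refine hN.le.trans (Subgroup.normalClosure_le_normal ?_)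
      rintro _ rfl g
      let f : P →* T := ((MulAut.conj g).toMonoidHom.comp P.subtype).codRestrict T
        fun x => hPK x.2 g
      have := hlt (hψ.isCharacter.comp f) (by
        rw [charDegree_comp]; nlinarith) hwD
      rw [hψ.isCharacter.charKer_comp] at this
      exact ⟨f w, this, rfl⟩
    have := le_charKer_indFun hNT hψ.isCharacter fun n hn => by
      obtain ⟨x, hx, rfl⟩ := Subgroup.normalCore_le _ (hNk hn)
      exact apply_eq_of_mem_charKer hx
    rw [e] at this
    exact hwZ (charKer_le_charCenter χ (this hwN))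
  have hψ1 : charDegree ψ = 1 := by nlinarith
  obtain ⟨K, hKe⟩ : ∃ K, K = T.normalCore := ⟨_, rfl⟩
  rw [← hKe] at hK
  have hKn : K.Normal := hKe ▸ inferInstance
  have hKT : K ≤ T := hKe ▸ T.normalCore_le
  have hKK : ⁅K, K⁆ ≤ charKer χ := by
    rw [← e]
    refine le_charKer_indFun ((Subgroup.commutator_le_left K K).trans hKT) hψ.isCharacter ?_
    intro n hn
    apply apply_eq_of_mem_charKer
    apply hψ.commutator_le_charKer_iff.mpr (hψ.isCharacter.charDegree_eq_one_iff.mp hψ1)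
    have h2 : ⁅K, K⁆ ≤ (commutator T).map T.subtype := by
      rw [Subgroup.map_subtype_commutator]
      exact Subgroup.commutator_mono hKT hKT
    obtain ⟨x, hx, rfl⟩ := h2 hn
    exact hx
  have hKc : PClosed p K := pClosed_of_comm fun a b => Subtype.ext
    (commutatorElement_eq_one_iff_mul_comm.mp (by
      have := hKK (Subgroup.commutator_mem_commutator a.2 b.2)
      rwa [hk] at this))
  have hO : ¬ p ∣ (pCore p G).relIndex K := by
    have hn : (pEltSub K hKc).Normal := ⟨fun x hx g => ⟨hKn.conj_mem x hx.1 g, hx.2.conj g⟩⟩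
    have h1 : pEltSub K hKc ≤ pCore p G := CL.le_pCore fun x => pElt_coe.mp x.2.2
    obtain ⟨Q⟩ : Nonempty (Sylow p K) := inferInstance
    have : (Q : Subgroup K) ≤ (pCore p G).subgroupOf K := fun x hx =>
      h1 ⟨x.2, pElt_coe.mpr (pElt_of_mem Q.isPGroup' hx)⟩
    exact fun h => Q.not_dvd_index (h.trans (Subgroup.index_dvd_of_le this))
  intro h
  have h1 := h.trans (Subgroup.index_dvd_of_le (inf_le_left (a := pCore p G) (b := K)))
  rw [← Subgroup.relIndex_mul_index (inf_le_right (a := pCore p G) (b := K)),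
    Subgroup.inf_relIndex_right] at h1
  have h2 := ((((Nat.Prime.coprime_iff_not_dvd hp.out).mpr hO).pow_left 2).dvd_of_dvd_mul_left
    h1).trans hK
  have hm2 : T.index < 2 * p := by rw [hd, hψ1, mul_one] at hn; exact hn
  rw [hp.out.pow_dvd_factorial_iff (b := 2) (Nat.log_lt_of_lt_pow (by omega) (by nlinarith))]
    at h2
  simp only [Nat.Ico_succ_singleton, Finset.sum_singleton, pow_one] at h2
  rw [Nat.le_div_iff_mul_le hp.out.pos] at h2
  omega

end CL.Ord
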